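import Mathlib

/-!
For a prime `l` with `l ≡ 3 (mod 4)` and `l ≡ 3 (mod 5)` the number `2 l` is of the form
`x² + 5 y²`.
-/

set_option autoImplicit false
set_option linter.style.haveILetI false

namespace Cfsg.Agent.H560.TwoForm

theorem not_sq_three : ∀ x : ZMod 5, x * x ≠ 3 := by decide

/-- `-5` is a square modulo `l`. -/
theorem exists_sq_eq (l : ℕ) [hl : Fact l.Prime] (h4 : l % 4 = 3) (h5 : l % 5 = 3) :
    ∃ t : ZMod l, t * t = -5 := by
  have hl2 : l ≠ 2 := by omega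
  have hchar : ringChar (ZMod l) ≠ 2 := by rw [ZMod.ringChar_zmod_n]; exact hl2
  haveI : Fact (Nat.Prime 5) := ⟨by norm_num⟩
  have h1 : ¬ IsSquare ((5 : ℕ) : ZMod l) := by
    rw [← ZMod.exists_sq_eq_prime_iff_of_mod_four_eq_one (p := 5) (q := l) (by norm_num) hl2]
    have h6 : ((l : ℕ) : ZMod 5) = 3 := by
      have : ((l : ℕ) : ZMod 5) = ((3 : ℕ) : ZMod 5) := (ZMod.natCast_eq_natCast_iff' _ _ _).2 h5
      exact this
    rw [h6]
    rintro ⟨x, hx⟩
    exact not_sq_three x hx.symm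
  have h2 : ¬ IsSquare (-1 : ZMod l) := by
    rw [ZMod.exists_sq_eq_neg_one_iff]
    omega
  have h50 : ((5 : ℕ) : ZMod l) ≠ 0 := by
    intro h; exact h1 (by rw [h]; exact ⟨0, by simp⟩)
  have h10 : (-1 : ZMod l) ≠ 0 := by simp
  have hq1 : quadraticChar (ZMod l) ((5 : ℕ) : ZMod l) = -1 :=
    (quadraticChar_dichotomy h50).resolve_left fun h => h1 ((quadraticChar_one_iff_isSquare h50).1 h)
  have hq2 : quadraticChar (ZMod l) (-1 : ZMod l) = -1 :=
    (quadraticChar_dichotomy h10).resolve_left fun h => h2 ((quadraticChar_one_iff_isSquare h10).1 h)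
  have hq : quadraticChar (ZMod l) (-1 * ((5 : ℕ) : ZMod l)) = 1 := by
    rw [map_mul, hq1, hq2]; norm_num
  obtain ⟨t, ht⟩ := (quadraticChar_one_iff_isSquare (mul_ne_zero h10 h50)).1 hq
  exact ⟨t, by rw [← ht]; push_cast; ring⟩

/-- Thue's lemma for the congruence `x ≡ t y`. -/
theorem thue (l : ℕ) [hl : Fact l.Prime] (t : ZMod l) :
    ∃ x y : ℤ, (x : ZMod l) = t * y ∧ (x ≠ 0 ∨ y ≠ 0) ∧ x ^ 2 < l ∧ y ^ 2 < l := by
  set n := Nat.sqrt l with hn
  have hn1 : n * n ≤ l := Nat.sqrt_le l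
  have hn2 : l < (n + 1) * (n + 1) := Nat.lt_succ_sqrt l
  have hn3 : n * n < l := by
    rcases hn1.lt_or_eq with h | h
    · exact h
    · exfalso
      exact hl.out.not_isSquare ⟨n, h.symm⟩
  obtain ⟨⟨a, b⟩, -, ⟨a', b'⟩, -, hne, heq⟩ :=
    Finset.exists_ne_map_eq_of_card_lt_of_maps_to
      (s := (Finset.univ : Finset (Fin (n + 1) × Fin (n + 1)))) (t := (Finset.univ : Finset (ZMod l)))
      (by rw [Finset.card_univ, Finset.card_univ, Fintype.card_prod, Fintype.card_fin, ZMod.card]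
          exact hn2)
      (f := fun z => ((z.1 : ℕ) : ZMod l) - t * ((z.2 : ℕ) : ZMod l)) (fun _ _ => Finset.mem_univ _)
  refine ⟨(a : ℤ) - a', (b : ℤ) - b', ?_, ?_, ?_, ?_⟩
  · push_cast
    simp only at heq
    linear_combination heq
  · by_contra hcon
    push Not at hcon
    apply hne
    have h1 : (a : ℕ) = a' := by omega
    have h2 : (b : ℕ) = b' := by omega
    exact Prod.ext (Fin.ext h1) (Fin.ext h2)
  · have h1 : (a : ℤ) ≤ n := by have := a.2; omega
    have h2 : (a' : ℤ) ≤ n := by have := a'.2; omega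
    have h3 : (0 : ℤ) ≤ (a : ℕ) := Int.natCast_nonneg _
    have h4 : (0 : ℤ) ≤ (a' : ℕ) := Int.natCast_nonneg _
    have h5 : ((n : ℤ)) * n < l := by exact_mod_cast hn3
    nlinarith
  · have h1 : (b : ℤ) ≤ n := by have := b.2; omega
    have h2 : (b' : ℤ) ≤ n := by have := b'.2; omega
    have h3 : (0 : ℤ) ≤ (b : ℕ) := Int.natCast_nonneg _
    have h4 : (0 : ℤ) ≤ (b' : ℕ) := Int.natCast_nonneg _
    have h5 : ((n : ℤ)) * n < l := by exact_mod_cast hn3
    nlinarith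

theorem not_one (l : ℕ) (h4 : l % 4 = 3) (x y : ℤ) : x ^ 2 + 5 * y ^ 2 ≠ l := by
  intro h
  obtain ⟨a, rfl | rfl⟩ := Int.even_or_odd' x <;> obtain ⟨b, rfl | rfl⟩ := Int.even_or_odd' y <;>
    ring_nf at h <;> omega

/-- **For a prime `l` with `l ≡ 3 (mod 4)` and `l ≡ 3 (mod 5)`, `2 l = x² + 5 y²`.** -/
theorem exists_two_mul (l : ℕ) [hl : Fact l.Prime] (h4 : l % 4 = 3) (h5 : l % 5 = 3) :
    ∃ x y : ℤ, x ^ 2 + 5 * y ^ 2 = 2 * l := by
  obtain ⟨t, ht⟩ := exists_sq_eq l h4 h5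
  obtain ⟨x, y, hxy, hne, hx, hy⟩ := thue l t
  have hdvd : (l : ℤ) ∣ x ^ 2 + 5 * y ^ 2 := by
    rw [← ZMod.intCast_zmod_eq_zero_iff_dvd]
    push_cast
    rw [hxy]
    linear_combination (y : ZMod l) ^ 2 * ht
  obtain ⟨k, hk⟩ := hdvd
  have hlpos : (0 : ℤ) < l := by exact_mod_cast hl.out.pos
  have hpos : 0 < x ^ 2 + 5 * y ^ 2 := by
    rcases hne with h | h
    · have := pow_pos (abs_pos.2 h) 2
      rw [sq_abs] at this
      nlinarith [sq_nonneg y]
    · have := pow_pos (abs_pos.2 h) 2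
      rw [sq_abs] at this
      nlinarith [sq_nonneg x]
  have hk0 : 0 < k := by
    by_contra hcon
    push Not at hcon
    nlinarith
  have hk6 : k < 6 := by
    by_contra hcon
    push Not at hcon
    nlinarith
  have hcases : k = 1 ∨ k = 2 ∨ k = 3 ∨ k = 4 ∨ k = 5 := by omega
  rcases hcases with rfl | rfl | rfl | rfl | rfl
  · exact absurd (by rw [hk, mul_one]) (not_one l h4 x y)
  · exact ⟨x, y, by rw [hk, mul_comm]⟩
  · -- `3 l`
    have h3 : (3 : ℤ) ∣ (x - y) * (x + y) := by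
      refine ⟨l - 2 * y ^ 2, ?_⟩
      linear_combination hk
    rcases Int.Prime.dvd_mul' Nat.prime_three h3 with h | h
    · obtain ⟨c, hc⟩ := h
      push_cast at hc
      obtain rfl : x = y + 3 * c := by linarith
      refine ⟨2 * y + c, c, ?_⟩
      have : 3 * ((2 * y + c) ^ 2 + 5 * c ^ 2) = 3 * (2 * (l : ℤ)) := by linear_combination 2 * hk
      linarith
    · obtain ⟨c, hc⟩ := h
      push_cast at hc
      obtain rfl : x = -y + 3 * c := by linarith
      refine ⟨2 * y - c, c, ?_⟩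
      have : 3 * ((2 * y - c) ^ 2 + 5 * c ^ 2) = 3 * (2 * (l : ℤ)) := by linear_combination 2 * hk
      linarith
  · exfalso
    obtain ⟨a, rfl | rfl⟩ := Int.even_or_odd' x <;> obtain ⟨b, rfl | rfl⟩ := Int.even_or_odd' y
    · refine not_one l h4 a b ?_
      linarith
    · ring_nf at hk; omega
    · ring_nf at hk; omega
    · have h8 : Even (a * (a + 1)) := Int.even_mul_succ_self a
      have h9 : Even (b * (b + 1)) := Int.even_mul_succ_self b
      obtain ⟨u, hu⟩ := h8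
      obtain ⟨v, hv⟩ := h9
      have h10 : 8 * u + 40 * v + 6 = 4 * (l : ℤ) := by linear_combination hk - 4 * hu - 20 * hv
      omega
  · have h6 : (5 : ℤ) ∣ x ^ 2 := ⟨l - y ^ 2, by linear_combination hk⟩
    have h7 : (5 : ℤ) ∣ x := Int.Prime.dvd_pow' (by norm_num : Nat.Prime 5) h6
    obtain ⟨c, rfl⟩ := h7
    exfalso
    refine not_one l h4 y c ?_
    linarith

end Cfsg.Agent.H560.TwoForm
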