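import Cfsg.Agent.H560.GaussPoly
import Cfsg.Agent.H560.TwoForm
import Mathlib

/-!
Division rings containing quaternion elements: the quaternion algebra `(-1,-1)` over
`ℚ(√5, ζ_r)` is split for every prime `r ∉ {2, 5}`, expressed inside a division ring.
-/

set_option autoImplicit false
set_option linter.style.haveILetI false

namespace Cfsg.Agent.H560.DivRing

section

variable {D : Type*} [DivisionRing D] [CharZero D]

/-- A quaternion with commuting coefficients of norm zero vanishes. -/
theorem eq_zero_of_norm_eq_zero {i j A B C E : D} (hi : i * i = -1) (hj : j * j = -1)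
    (hij : j * i = -(i * j)) (hAi : Commute A i) (hAj : Commute A j) (hBi : Commute B i)
    (hBj : Commute B j) (hCi : Commute C i) (hCj : Commute C j) (hEi : Commute E i)
    (hEj : Commute E j) (hAB : Commute A B) (hAC : Commute A C) (hAE : Commute A E)
    (hBC : Commute B C) (hBE : Commute B E) (hCE : Commute C E)
    (h : A * A + B * B + C * C + E * E = 0) : A = 0 := by
  have h20 : (2 : D) ≠ 0 := two_ne_zero
  have hi0 : i ≠ 0 := by
    rintro rfl
    rw [mul_zero] at hi
    exact one_ne_zero (neg_eq_zero.1 hi.symm)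
  have hj0 : j ≠ 0 := by
    rintro rfl
    rw [mul_zero] at hj
    exact one_ne_zero (neg_eq_zero.1 hj.symm)
  obtain ⟨k, hk⟩ : ∃ k, k = i * j := ⟨_, rfl⟩
  have hji : j * i = -k := by rw [hij, hk]
  have hki : k * i = j := by
    rw [hk, mul_assoc, hji, hk, mul_neg, ← mul_assoc, hi, neg_one_mul, neg_neg]
  have hik : i * k = -j := by rw [hk, ← mul_assoc, hi, neg_one_mul]
  have hkj : k * j = -i := by rw [hk, mul_assoc, hj, mul_neg_one]
  have hjk : j * k = i := by
    rw [hk, ← mul_assoc, hij, neg_mul, mul_assoc, hj, mul_neg_one, neg_neg]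
  have hkk : k * k = -1 := by
    nth_rw 1 [hk]
    rw [mul_assoc, hjk, hi]
  have hAk : Commute A k := by rw [hk]; exact hAi.mul_right hAj
  have hBk : Commute B k := by rw [hk]; exact hBi.mul_right hBj
  have hCk : Commute C k := by rw [hk]; exact hCi.mul_right hCj
  have hEk : Commute E k := by rw [hk]; exact hEi.mul_right hEj
  obtain ⟨v, hv⟩ : ∃ v, v = B * i + C * j + E * k := ⟨_, rfl⟩
  have hAv : Commute A v := by
    rw [hv]
    exact ((hAB.mul_right hAi).add_right (hAC.mul_right hAj)).add_right (hAE.mul_right hAk)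
  have hvv : v * v = -(B * B + C * C + E * E) := by
    rw [hv]
    have e1 : B * i * (B * i) = -(B * B) := by
      rw [hBi.symm.mul_mul_mul_comm, hi, mul_neg_one]
    have e2 : C * j * (C * j) = -(C * C) := by
      rw [hCj.symm.mul_mul_mul_comm, hj, mul_neg_one]
    have e3 : E * k * (E * k) = -(E * E) := by
      rw [hEk.symm.mul_mul_mul_comm, hkk, mul_neg_one]
    have e4 : B * i * (C * j) = (B * C) * k := by
      rw [hCi.symm.mul_mul_mul_comm, ← hk]
    have e5 : C * j * (B * i) = -((B * C) * k) := by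
      rw [hBj.symm.mul_mul_mul_comm, hji, mul_neg, hBC.eq]
    have e6 : B * i * (E * k) = -((B * E) * j) := by
      rw [hEi.symm.mul_mul_mul_comm, hik, mul_neg]
    have e7 : E * k * (B * i) = (B * E) * j := by
      rw [hBk.symm.mul_mul_mul_comm, hki, hBE.eq]
    have e8 : C * j * (E * k) = (C * E) * i := by
      rw [hEj.symm.mul_mul_mul_comm, hjk]
    have e9 : E * k * (C * j) = -((C * E) * i) := by
      rw [hCk.symm.mul_mul_mul_comm, hkj, mul_neg, hCE.eq]
    rw [add_mul, add_mul, mul_add, mul_add, mul_add, mul_add, mul_add, mul_add, e1, e2, e3, e4, e5,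
      e6, e7, e8, e9]
    abel
  have hprod : (A + v) * (A - v) = 0 := by
    rw [add_mul, mul_sub, mul_sub, hvv, hAv.eq]
    have : A * A - v * A + (v * A - -(B * B + C * C + E * E)) = A * A + B * B + C * C + E * E := by
      abel
    rw [this, h]
  -- the key: `A = v` implies `A = 0`
  have key : ∀ A' : D, Commute A' i → Commute A' j → A' = v → A' = 0 := by
    intro A' h1 h2 h3
    have h4 : v * i = i * v := by rw [← h3]; exact h1
    have h5 : v * i = -B - C * k + E * j := by
      rw [hv, add_mul, add_mul, mul_assoc, mul_assoc, mul_assoc, hi, hji, hki, mul_neg_one, mul_neg]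
      abel
    have h6 : i * v = -B + C * k - E * j := by
      rw [hv, mul_add, mul_add, ← mul_assoc, ← mul_assoc, ← mul_assoc, ← hBi.eq, ← hCi.eq, ← hEi.eq,
        mul_assoc, mul_assoc, mul_assoc, hi, ← hk, hik, mul_neg_one, mul_neg]
      abel
    have h7 : C * k = E * j := by
      have h8 : (2 : D) * (C * k - E * j) = 0 := by
        have : (2 : D) * (C * k - E * j) = (-B + C * k - E * j) - (-B - C * k + E * j) := by
          rw [two_mul]; abel
        rw [this, ← h5, ← h6, h4, sub_self]
      have h9 := (mul_eq_zero.1 h8).resolve_left h20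
      exact sub_eq_zero.1 h9
    have h10 : C * j = -(E * k) := by
      have h11 : C * k * i = E * j * i := by rw [h7]
      rw [mul_assoc, mul_assoc, hki, hji, mul_neg] at h11
      exact h11
    have h12 : v = B * i := by rw [hv, h10]; abel
    have h13 : A' * j = j * A' := h2
    rw [h3, h12, ← mul_assoc j, ← hBj.eq, mul_assoc B j i, hij, mul_neg, mul_assoc] at h13
    have h14 : (2 : D) * (B * (i * j)) = 0 := by
      rw [two_mul]
      nth_rw 1 [h13]
      abel
    have h15 := (mul_eq_zero.1 h14).resolve_left h20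
    have h16 : B = 0 := by
      rcases mul_eq_zero.1 h15 with h | h
      · exact h
      · rcases mul_eq_zero.1 h with h | h
        · exact absurd h hi0
        · exact absurd h hj0
    rw [h3, h12, h16, zero_mul]
  rcases mul_eq_zero.1 hprod with h1 | h1
  · have h2 := key (-A) hAi.neg_left hAj.neg_left (neg_eq_of_add_eq_zero_right h1)
    exact neg_eq_zero.1 h2
  · exact key A hAi hAj (sub_eq_zero.1 h1)

theorem commute_aeval {m x : D} (h : Commute m x) (P : Polynomial ℚ) :
    Commute (Polynomial.aeval m P) x := by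
  induction P using Polynomial.induction_on' with
  | add p q hp hq => rw [map_add]; exact hp.add_left hq
  | monomial n a =>
    rw [Polynomial.aeval_monomial]
    exact (show Commute (algebraMap ℚ D a) x from Algebra.commutes a x).mul_left (h.pow_left n)

/-- **The quaternion algebra `(-1,-1)` over `ℚ(√5, ζ_r)` is split**: in a division ring of
characteristic zero containing anticommuting square roots `i`, `j` of `-1` and a square root of `5`
commuting with them, there is no element of prime order `r ∉ {2, 5}` commuting with everything. -/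
theorem eq_one_of_commute {i j w m : D} (hi : i * i = -1) (hj : j * j = -1)
    (hij : j * i = -(i * j)) (hw : w * w = 5) (hwi : Commute w i) (hwj : Commute w j)
    (hwm : Commute w m) (hmi : Commute m i) (hmj : Commute m j) {r : ℕ} (hr : r.Prime)
    (hr2 : r ≠ 2) (hr5 : r ≠ 5) (hm : m ^ r = 1) : m = 1 := by
  by_contra hm1
  have hr0 : 0 < r := hr.pos
  -- the prime `l`
  have hco : Nat.Coprime 20 r := by
    have h1 : Nat.Coprime 2 r := (Nat.coprime_primes Nat.prime_two hr).2 (Ne.symm hr2)
    have h2 : Nat.Coprime 5 r := (Nat.coprime_primes (by norm_num) hr).2 (Ne.symm hr5)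
    have h3 : (20 : ℕ) = 2 * 2 * 5 := by norm_num
    rw [h3]
    exact (h1.mul_left h1).mul_left h2
  obtain ⟨k, hk1, hk2⟩ := Nat.chineseRemainder hco 3 (r - 1)
  have hkc : k.Coprime (20 * r) := by
    have h1 : Nat.Coprime k 20 := by
      have h2 : Nat.gcd k 20 = Nat.gcd 3 20 := hk1.gcd_eq
      rw [Nat.Coprime, h2]
      norm_num
    have h3 : Nat.Coprime k r := by
      have h4 : Nat.gcd k r = Nat.gcd (r - 1) r := hk2.gcd_eq
      rw [Nat.Coprime, h4]
      exact (Nat.coprime_self_sub_left (by omega)).2 (Nat.coprime_one_left r)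
    exact h1.mul_right h3
  obtain ⟨l, -, hl, hlk⟩ := Nat.forall_exists_prime_gt_and_modEq 0 (q := 20 * r) (a := k)
    (by positivity) hkc
  haveI : Fact l.Prime := ⟨hl⟩
  have hl20 : l ≡ 3 [MOD 20] := (hlk.of_dvd (dvd_mul_right 20 r)).trans hk1
  have hlr : l ≡ r - 1 [MOD r] := (hlk.of_dvd (dvd_mul_left r 20)).trans hk2
  have hl20' : l % 20 = 3 := hl20
  have hl4 : l % 4 = 3 := by omega
  have hl5 : l % 5 = 3 := by omega
  obtain ⟨Y, Z, hYZ⟩ := GaussPoly.exists_gauss l hl4
  obtain ⟨x, y, hxy⟩ := TwoForm.exists_two_mul l hl4 hl5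
  -- evaluate at `m`
  obtain ⟨a, ha⟩ : ∃ a, a = Polynomial.aeval m Y := ⟨_, rfl⟩
  obtain ⟨b, hb⟩ : ∃ b, b = Polynomial.aeval m Z := ⟨_, rfl⟩
  have hcomm : ∀ z : D, Commute m z → Commute a z ∧ Commute b z := by
    intro z hz
    rw [ha, hb]
    exact ⟨commute_aeval hz Y, commute_aeval hz Z⟩
  obtain ⟨hai, hbi⟩ := hcomm i hmi
  obtain ⟨haj, hbj⟩ := hcomm j hmj
  obtain ⟨haw, hbw⟩ := hcomm w hwm.symm
  obtain ⟨ham, hbm⟩ := hcomm m (Commute.refl m)
  have hab : Commute a b := (hcomm b hbm.symm).1
  have hphi : Polynomial.aeval m (Polynomial.cyclotomic l ℚ) = -m ^ (r - 1) := by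
    have h1 := congrArg (Polynomial.aeval m) (Polynomial.cyclotomic_prime_mul_X_sub_one ℚ l)
    rw [map_mul, map_sub, map_sub, map_pow, map_one, Polynomial.aeval_X] at h1
    have h2 : m ^ l = m ^ (r - 1) := by
      rw [← Nat.mod_add_div l r, pow_add, pow_mul, hm, one_pow, mul_one, hlr,
        Nat.mod_eq_of_lt (by omega)]
    rw [h2] at h1
    have h3 : m ^ (r - 1) * m = 1 := by rw [← pow_succ, Nat.sub_add_cancel hr0, hm]
    have h4 : -m ^ (r - 1) * (m - 1) = m ^ (r - 1) - 1 := by
      rw [mul_sub, neg_mul, h3, mul_one]; abel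
    rw [← h4] at h1
    exact mul_right_cancel₀ (sub_ne_zero.2 hm1) h1
  have hodd : Odd r := hr.odd_of_ne_two hr2
  obtain ⟨s, hs⟩ := hodd
  have hrs : r - 1 = s + s := by omega
  obtain ⟨u, hu⟩ : ∃ u, u = m ^ s := ⟨_, rfl⟩
  have huu : m ^ (r - 1) = u * u := by rw [hrs, pow_add, hu]
  have hmain : (4 : D) * (u * u) + a * a + (l : D) * (b * b) = 0 := by
    have h1 := congrArg (Polynomial.aeval m) hYZ
    rw [map_mul, map_add, map_mul, map_pow, map_pow, map_natCast, hphi, huu, ← ha, ← hb] at h1
    have h4 : (Polynomial.aeval m) (4 : Polynomial ℚ) = (4 : D) := by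
      rw [show (4 : Polynomial ℚ) = ((4 : ℕ) : Polynomial ℚ) by norm_num, map_natCast]; norm_num
    rw [h4, mul_neg, sq, sq] at h1
    rw [add_assoc, ← h1]
    exact add_neg_cancel _
  have hui : Commute u i := by rw [hu]; exact hmi.pow_left s
  have huj : Commute u j := by rw [hu]; exact hmj.pow_left s
  have huw : Commute u w := by rw [hu]; exact hwm.symm.pow_left s
  have hua : Commute u a := by rw [hu]; exact (ham.symm).pow_left s
  have hub : Commute u b := by rw [hu]; exact (hbm.symm).pow_left s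
  -- the coefficients
  have hxc : ∀ z : D, Commute (x : D) z := fun z => Int.cast_commute x z
  have hyc : ∀ z : D, Commute (y : D) z := fun z => Int.cast_commute y z
  have h2c : ∀ z : D, Commute (2 : D) z := fun z => Commute.ofNat_left 2 z
  have h4c : ∀ z : D, Commute (4 : D) z := fun z => Commute.ofNat_left 4 z
  obtain ⟨c, hc⟩ : ∃ c : D, c = (x : D) + (y : D) * w := ⟨_, rfl⟩
  obtain ⟨e, he⟩ : ∃ e : D, e = (x : D) - (y : D) * w := ⟨_, rfl⟩
  have hcz : ∀ z : D, Commute w z → Commute c z ∧ Commute e z := by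
    intro z hz
    rw [hc, he]
    exact ⟨(hxc z).add_left ((hyc z).mul_left hz), (hxc z).sub_left ((hyc z).mul_left hz)⟩
  have hcc : c * c + e * e = 4 * (l : D) := by
    have h1 : (y : D) * w * ((y : D) * w) = ((5 * y ^ 2 : ℤ) : D) := by
      rw [(hyc w).symm.mul_mul_mul_comm, hw]
      push_cast
      rw [sq, ((Commute.ofNat_left 5 ((y : D) * (y : D))).eq)]
    have h2 : c * c + e * e = 2 * ((x : D) * (x : D)) + 2 * ((y : D) * w * ((y : D) * w)) := by
      rw [hc, he]; noncomm_ring
    rw [h2, h1]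
    have h3 : (((2 * (x * x) + 2 * (5 * y ^ 2) : ℤ)) : D) = ((4 * (l : ℤ) : ℤ) : D) := by
      congr 1
      linear_combination 2 * hxy
    push_cast at h3 ⊢
    exact h3
  have hzero : (4 * u) * (4 * u) + (2 * a) * (2 * a) + (c * b) * (c * b) + (e * b) * (e * b) = 0 := by
    have h1 : (4 * u) * (4 * u) = 4 * (4 * (u * u)) := by
      rw [(h4c u).symm.mul_mul_mul_comm, mul_assoc]
    have h2 : (2 * a) * (2 * a) = 4 * (a * a) := by
      rw [(h2c a).symm.mul_mul_mul_comm]; norm_num
    have hcb := (hcz b hbw.symm).1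
    have heb := (hcz b hbw.symm).2
    have h3 : (c * b) * (c * b) = (c * c) * (b * b) := hcb.symm.mul_mul_mul_comm _ _
    have h4 : (e * b) * (e * b) = (e * e) * (b * b) := heb.symm.mul_mul_mul_comm _ _
    rw [h1, h2, h3, h4, add_assoc, ← add_mul, hcc, mul_assoc 4 (l : D), ← mul_add, ← mul_add, hmain,
      mul_zero]
  obtain ⟨hci, hei⟩ := hcz i hwi
  obtain ⟨hcj, hej⟩ := hcz j hwj
  obtain ⟨hcu, heu⟩ := hcz u huw.symm
  obtain ⟨hca, hea⟩ := hcz a haw.symm
  obtain ⟨hcb, heb⟩ := hcz b hbw.symm
  obtain ⟨hcw, hew⟩ := hcz w (Commute.refl w)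
  obtain ⟨-, hec⟩ := hcz c hcw.symm
  have hfin : (4 : D) * u = 0 := by
    refine eq_zero_of_norm_eq_zero (A := 4 * u) (B := 2 * a) (C := c * b) (E := e * b) hi hj hij
      ((h4c _).mul_left hui) ((h4c _).mul_left huj) ((h2c _).mul_left hai) ((h2c _).mul_left haj)
      (hci.mul_left hbi) (hcj.mul_left hbj) (hei.mul_left hbi) (hej.mul_left hbj)
      ?_ ?_ ?_ ?_ ?_ ?_ hzero
    · exact (h4c _).mul_left ((h2c u).symm.mul_right hua)
    · exact (h4c _).mul_left (hcu.symm.mul_right hub)
    · exact (h4c _).mul_left (heu.symm.mul_right hub)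
    · exact (h2c _).mul_left (hca.symm.mul_right hab)
    · exact (h2c _).mul_left (hea.symm.mul_right hab)
    · refine Commute.mul_left (Commute.mul_right hec.symm hcb) (Commute.mul_right heb.symm (Commute.refl b))
  have hu0 : u = 0 := (mul_eq_zero.1 hfin).resolve_left (by
    have h := (Nat.cast_ne_zero (R := D)).2 (four_ne_zero : (4 : ℕ) ≠ 0)
    exact_mod_cast h)
  have hm0 : m ≠ 0 := by
    rintro rfl
    rw [zero_pow hr0.ne'] at hm
    exact zero_ne_one hm
  rw [hu] at hu0
  exact pow_ne_zero s hm0 hu0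

/-- The algebra `(-1, 5)` over `ℚ` is split. -/
theorem false_of_anticomm {t w : D} (ht : t * t = -1) (hw : w * w = 5) (htw : t * w = -(w * t)) :
    False := by
  have h20 : (2 : D) ≠ 0 := two_ne_zero
  have h1 : (1 + 2 * t + w) * (1 - 2 * t - w) = 0 := by
    have h2 : (1 + 2 * t + w) * (1 - 2 * t - w) =
        1 - 4 * (t * t) - 2 * (t * w + w * t) - w * w := by noncomm_ring
    rw [h2, ht, hw, htw]
    norm_num
  have h3 : ∀ z : D, w = z - 2 * t → Commute t z → False := by
    intro z hz hc
    have h4 : t * w = w * t := by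
      rw [hz, mul_sub, sub_mul, hc.eq]
      congr 1
      rw [← mul_assoc, mul_assoc 2, ((Commute.ofNat_left 2 t).eq).symm, mul_assoc]
    have h5 : (2 : D) * (w * t) = 0 := by
      rw [two_mul]
      nth_rw 1 [← h4]
      rw [htw, neg_add_cancel]
    rcases mul_eq_zero.1 ((mul_eq_zero.1 h5).resolve_left h20) with h | h
    · rw [h, mul_zero] at hw
      norm_num at hw
    · rw [h, mul_zero] at ht
      exact one_ne_zero (neg_eq_zero.1 ht.symm)
  rcases mul_eq_zero.1 h1 with h | h
  · refine h3 (-1) ?_ ((Commute.one_right t).neg_right)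
    rw [eq_neg_of_add_eq_zero_right h]
    abel
  · refine h3 1 ?_ (Commute.one_right t)
    rw [← sub_eq_zero.1 h]

end

end Cfsg.Agent.H560.DivRing
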