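import Cfsg.Agent.H560.Semi
import Mathlib

/-!
Reduction modulo a prime: a finite group acting fixed-point-freely on an abelian group (for
instance on a nonzero vector space over a field of characteristic zero) is a Frobenius complement.
-/

set_option autoImplicit false
set_option linter.style.haveILetI false
set_option linter.unusedSectionVars false

namespace Cfsg.Agent.H560

section lattice

variable {G U : Type*} [Group G] [Finite G] [AddCommGroup U] (φ : G →* AddMonoid.End U) (u : U)

/-- The lattice spanned by the orbit of `u`. -/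
def lat : Submodule ℤ U := Submodule.span ℤ (Set.range fun g : G => φ g u)

theorem mem_lat : u ∈ lat φ u := by
  apply Submodule.subset_span
  exact ⟨1, by simp⟩

theorem lat_fg : (lat φ u).FG := Submodule.fg_span (Set.finite_range _)

theorem lat_inv (g : G) : ∀ v ∈ lat φ u, φ g v ∈ lat φ u := by
  intro v hv
  refine Submodule.span_induction (p := fun v _ => φ g v ∈ lat φ u) ?_ ?_ ?_ ?_ hv
  · rintro _ ⟨h, rfl⟩
    apply Submodule.subset_span
    exact ⟨g * h, by simp [map_mul]⟩
  · rw [map_zero]; exact Submodule.zero_mem _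
  · intro x y _ _ hx hy
    rw [map_add]
    exact Submodule.add_mem _ hx hy
  · intro a x _ hx
    have : φ g (a • x) = a • φ g x := map_zsmul (φ g) a x
    rw [this]
    exact Submodule.smul_mem _ _ hx

/-- The action on the lattice. -/
def latRep : G →* Module.End ℤ (lat φ u) where
  toFun g :=
    { toFun := fun v => ⟨φ g v, lat_inv φ u g v v.2⟩
      map_add' := fun a b => Subtype.ext (map_add (φ g) a.1 b.1)
      map_smul' := fun a b => Subtype.ext (map_zsmul (φ g) a b.1) }
  map_one' := by
    ext v
    show φ 1 v.1 = v.1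
    rw [map_one]; rfl
  map_mul' := by
    intro a b
    ext v
    show φ (a * b) v.1 = φ a (φ b v.1)
    rw [map_mul]; rfl

theorem latRep_apply (g : G) (v : lat φ u) : ((latRep φ u g v : lat φ u) : U) = φ g v := rfl

/-- the sublattice of multiples of `q` -/
def latMul (q : ℕ) : Submodule ℤ (lat φ u) := LinearMap.range ((q : ℤ) • (LinearMap.id : lat φ u →ₗ[ℤ] lat φ u))

theorem mem_latMul (q : ℕ) (v : lat φ u) : v ∈ latMul φ u q ↔ ∃ w : lat φ u, (q : ℤ) • w = v := by
  unfold latMul
  rw [LinearMap.mem_range]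
  rfl

theorem latMul_le (q : ℕ) (g : G) : latMul φ u q ≤ (latMul φ u q).comap (latRep φ u g) := by
  intro v hv
  rw [mem_latMul] at hv
  obtain ⟨w, rfl⟩ := hv
  rw [Submodule.mem_comap, mem_latMul]
  exact ⟨latRep φ u g w, by rw [map_smul]⟩

/-- The action on the lattice modulo `q`. -/
def modRep (q : ℕ) : G →* Module.End ℤ (lat φ u ⧸ latMul φ u q) where
  toFun g := Submodule.mapQ _ _ (latRep φ u g) (latMul_le φ u q g)
  map_one' := by
    ext v
    simp
  map_mul' := by
    intro a b
    ext v
    simp [map_mul]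

theorem modRep_mk (q : ℕ) (g : G) (v : lat φ u) :
    modRep φ u q g (Submodule.Quotient.mk v) = Submodule.Quotient.mk (latRep φ u g v) := rfl

end lattice

/-- **Reduction modulo a prime `q`.** Let the finite group `G ≠ 1` act fixed-point-freely on the
abelian group `U`, let `q` be a prime not dividing `|G|` and `u ∈ U` an element which is not killed
by any integer congruent to `1` modulo `q`. Then `G` is a Frobenius complement. -/
theorem exists_of_fpf_prime {G U : Type*} [Group G] [Finite G] [Nontrivial G] [AddCommGroup U]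
    (φ : G →* AddMonoid.End U) (hφ : ∀ a : G, a ≠ 1 → ∀ v : U, φ a v = v → v = 0)
    (q : ℕ) (hq : q.Prime) (hqG : ¬ q ∣ Nat.card G) (u : U)
    (hu : ∀ m : ℤ, (q : ℤ) ∣ m - 1 → m • u ≠ 0) :
    ∃ (L : Type) (_ : Group L) (_ : Finite L) (H : Subgroup L),
      Cfsg.IsFrobeniusComplement H ∧ Nonempty (G ≃* H) := by
  haveI hfg : Module.Finite ℤ (lat φ u) := Module.Finite.iff_fg.2 (lat_fg φ u)
  have hqz : (q : ℤ) ≠ 0 := by exact_mod_cast hq.ne_zero
  have hq0 : ∀ x : lat φ u ⧸ latMul φ u q, (q : ℤ) • x = 0 := by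
    intro x
    obtain ⟨v, rfl⟩ := Submodule.Quotient.mk_surjective _ x
    rw [← Submodule.Quotient.mk_smul, Submodule.Quotient.mk_eq_zero, mem_latMul]
    exact ⟨v, rfl⟩
  -- finiteness
  haveI hfin : Finite (lat φ u ⧸ latMul φ u q) := by
    apply Module.finite_of_fg_torsion
    intro x
    exact ⟨⟨(q : ℤ), mem_nonZeroDivisors_of_ne_zero hqz⟩, hq0 x⟩
  -- nontriviality
  haveI hnt : Nontrivial (lat φ u ⧸ latMul φ u q) := by
    rw [Submodule.Quotient.nontrivial_iff]
    intro htop
    have h1 : lat φ u ≤ (Ideal.span {(q : ℤ)}) • lat φ u := by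
      intro v hv
      have h2 : (⟨v, hv⟩ : lat φ u) ∈ latMul φ u q := by rw [htop]; trivial
      rw [mem_latMul] at h2
      obtain ⟨w, hw⟩ := h2
      have h3 : (q : ℤ) • (w : U) = v := congrArg Subtype.val hw
      rw [← h3]
      exact Submodule.smul_mem_smul (Ideal.mem_span_singleton_self _) w.2
    obtain ⟨r, hr, hr0⟩ := Submodule.exists_sub_one_mem_and_smul_eq_zero_of_fg_of_le_smul _ _
      (lat_fg φ u) h1
    rw [Ideal.mem_span_singleton] at hr
    exact hu r hr (hr0 u (mem_lat φ u))
  obtain ⟨L, i1, i2, H, h1, h2, -⟩ := exists_of_fpf_linear (modRep φ u q) (by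
    intro g hg x hx
    obtain ⟨v, rfl⟩ := Submodule.Quotient.mk_surjective _ x
    -- the norm element
    set n := orderOf g with hn
    have hsum : ∑ i ∈ Finset.range n, φ (g ^ i) (v : U) = 0 := by
      apply hφ g hg
      rw [map_sum]
      have h3 : ∀ i, φ g (φ (g ^ i) (v : U)) = φ (g ^ (i + 1)) (v : U) := by
        intro i
        rw [pow_succ', map_mul]; rfl
      rw [Finset.sum_congr rfl (fun i _ => h3 i)]
      have h4 := Finset.sum_range_succ (fun i => φ (g ^ i) (v : U)) n
      rw [Finset.sum_range_succ', hn, pow_orderOf_eq_one, pow_zero] at h4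
      exact add_right_cancel h4
    have hsum' : ∑ i ∈ Finset.range n, latRep φ u (g ^ i) v = 0 := by
      apply Subtype.ext
      rw [Submodule.coe_sum]
      exact hsum
    have hfix : ∀ i : ℕ, modRep φ u q (g ^ i) (Submodule.Quotient.mk v) =
        (Submodule.Quotient.mk v : lat φ u ⧸ latMul φ u q) := by
      intro i
      induction i with
      | zero => rw [pow_zero, map_one]; rfl
      | succ i ih => rw [pow_succ, map_mul, Module.End.mul_apply, hx, ih]
    have h5 : n • (Submodule.Quotient.mk v : lat φ u ⧸ latMul φ u q) = 0 := by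
      have h6 : ∑ i ∈ Finset.range n, modRep φ u q (g ^ i) (Submodule.Quotient.mk v) =
          (0 : lat φ u ⧸ latMul φ u q) := by
        have h7 := congrArg (Submodule.mkQ (latMul φ u q)) hsum'
        rw [map_sum, map_zero] at h7
        exact h7
      rw [Finset.sum_congr rfl (fun i _ => hfix i), Finset.sum_const, Finset.card_range] at h6
      exact h6
    have h8 : q • (Submodule.Quotient.mk v : lat φ u ⧸ latMul φ u q) = 0 := by
      have := hq0 (Submodule.Quotient.mk v)
      rwa [natCast_zsmul] at this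
    have h9 : Nat.Coprime n q := by
      rw [Nat.coprime_comm, Nat.Prime.coprime_iff_not_dvd hq]
      intro h
      exact hqG (h.trans (orderOf_dvd_natCard g))
    have h10 : addOrderOf (Submodule.Quotient.mk v : lat φ u ⧸ latMul φ u q) ∣ 1 := by
      rw [← h9.gcd_eq_one]
      exact Nat.dvd_gcd (addOrderOf_dvd_of_nsmul_eq_zero h5) (addOrderOf_dvd_of_nsmul_eq_zero h8)
    exact AddMonoid.addOrderOf_eq_one_iff.1 (Nat.dvd_one.1 h10))
  exact ⟨L, i1, i2, H, h1, h2⟩

/-- **Characteristic zero version**: a nontrivial finite group acting fixed-point-freely on a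
nonzero torsion-free abelian group is a Frobenius complement. -/
theorem exists_of_fpf_torsionfree {G U : Type*} [Group G] [Finite G] [Nontrivial G] [AddCommGroup U]
    [Nontrivial U] (htf : ∀ (m : ℤ) (v : U), m ≠ 0 → m • v = 0 → v = 0)
    (φ : G →* AddMonoid.End U) (hφ : ∀ a : G, a ≠ 1 → ∀ v : U, φ a v = v → v = 0) :
    ∃ (L : Type) (_ : Group L) (_ : Finite L) (H : Subgroup L),
      Cfsg.IsFrobeniusComplement H ∧ Nonempty (G ≃* H) := by
  obtain ⟨u, hu⟩ := exists_ne (0 : U)
  obtain ⟨q, hq1, hq⟩ := Nat.exists_infinite_primes (Nat.card G + 1)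
  refine exists_of_fpf_prime φ hφ q hq ?_ u ?_
  · intro h
    have := Nat.le_of_dvd Nat.card_pos h
    omega
  · intro m hm h0
    apply hu
    apply htf m u _ h0
    rintro rfl
    have h1 : (q : ℤ) ∣ 1 := by
      have h2 := (dvd_neg (a := (q : ℤ))).2 hm
      simpa using h2
    have h2 : q ∣ 1 := by exact_mod_cast h1
    exact hq.one_lt.ne' (Nat.dvd_one.1 h2)

end Cfsg.Agent.H560
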