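import Cfsg.Prelude.Def_Solvable
import Cfsg.Agent.Solvable.FrobeniusKernel
import Mathlib

/-!
From a fixed-point-free action of a nontrivial finite group on a nontrivial finite group to a
Frobenius complement in a finite group living in `Type` (the semidirect product), together with
the order of the Frobenius kernel.
-/

set_option autoImplicit false

namespace Cfsg.Agent.H560

/-- Version in `Type`: the semidirect product for a fixed-point-free action. -/
theorem exists_of_fpf_type {G V : Type} [Group G] [Finite G] [Nontrivial G] [Group V] [Finite V]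
    [Nontrivial V] (φ : G →* MulAut V) (hφ : ∀ a : G, a ≠ 1 → ∀ v : V, φ a v = v → v = 1) :
    ∃ (L : Type) (_ : Group L) (_ : Finite L) (H : Subgroup L),
      Cfsg.IsFrobeniusComplement H ∧ Nonempty (G ≃* H) ∧
      Nat.card (Cfsg.frobeniusKernel H) = Nat.card V := by
  let L : Type := V ⋊[φ] G
  have hfin : Finite L := Finite.of_equiv _ (SemidirectProduct.equivProd (φ := φ)).symm
  let ι : G →* L := SemidirectProduct.inr
  have hι : Function.Injective ι := SemidirectProduct.inr_injective
  have hFC : Cfsg.IsFrobeniusComplement ι.range := by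
    refine ⟨?_, ?_, ?_⟩
    · intro h
      obtain ⟨a, ha⟩ := exists_ne (1 : G)
      have h1 : ι a ∈ ι.range := ⟨_, rfl⟩
      rw [h, Subgroup.mem_bot] at h1
      exact ha (hι (by rw [h1, map_one]))
    · intro h
      obtain ⟨v, hv⟩ := exists_ne (1 : V)
      have h1 : (SemidirectProduct.inl v : L) ∈ ι.range := by rw [h]; trivial
      obtain ⟨s, hs⟩ := h1
      have h2 := congrArg SemidirectProduct.left hs
      exact hv h2.symm
    · intro g hg
      rw [eq_bot_iff]
      intro h hh
      obtain ⟨⟨a, rfl⟩, h2⟩ := Subgroup.mem_inf.1 hh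
      rw [Subgroup.mem_bot]
      rw [Subgroup.mem_smul_pointwise_iff_exists] at h2
      obtain ⟨_, ⟨b, rfl⟩, hb⟩ := h2
      have hb' : g * ι b * g⁻¹ = ι a := hb
      have hb2 : g * ι b = ι a * g := by rw [← hb', inv_mul_cancel_right]
      have hl := congrArg SemidirectProduct.left hb2
      have hl' : g.left * φ g.right 1 = 1 * φ a g.left := hl
      rw [map_one, mul_one, one_mul] at hl'
      by_cases ha : a = 1
      · rw [ha, map_one]
      · exfalso
        have h1 : g.left = 1 := hφ a ha g.left hl'.symm
        apply hg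
        refine ⟨g.right, ?_⟩
        apply SemidirectProduct.ext
        · exact h1.symm
        · rfl
  refine ⟨L, inferInstance, hfin, ι.range, hFC, ⟨MonoidHom.ofInjective hι⟩, ?_⟩
  rw [Cfsg.Agent.Solvable.FrobeniusKernel.card_kernel hFC]
  have h1 : Nat.card ι.range = Nat.card G := (Nat.card_congr (MonoidHom.ofInjective hι).toEquiv).symm
  have h2 : Nat.card L = Nat.card V * Nat.card G := by
    rw [Nat.card_congr (SemidirectProduct.equivProd (φ := φ)), Nat.card_prod]
  have h3 := Subgroup.index_mul_card ι.range
  rw [h1, h2] at h3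
  exact Nat.eq_of_mul_eq_mul_right Nat.card_pos h3

/-- A finite group is isomorphic to a group in `Type`. -/
theorem exists_type_equiv (G : Type*) [Group G] [Finite G] :
    ∃ (G' : Type) (_ : Group G') (_ : Finite G'), Nonempty (G ≃* G') :=
  ⟨Shrink.{0} G, inferInstance, inferInstance, ⟨Shrink.mulEquiv.symm⟩⟩

/-- **A nontrivial finite group acting fixed-point-freely on a nontrivial finite group occurs as a
Frobenius complement** (in a group in `Type`); the Frobenius kernel has the order of the group
acted upon. -/
theorem exists_of_fpf {G V : Type*} [Group G] [Finite G] [Nontrivial G] [Group V] [Finite V]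
    [Nontrivial V] (φ : G →* MulAut V) (hφ : ∀ a : G, a ≠ 1 → ∀ v : V, φ a v = v → v = 1) :
    ∃ (L : Type) (_ : Group L) (_ : Finite L) (H : Subgroup L),
      Cfsg.IsFrobeniusComplement H ∧ Nonempty (G ≃* H) ∧
      Nat.card (Cfsg.frobeniusKernel H) = Nat.card V := by
  obtain ⟨G', _, _, ⟨e⟩⟩ := exists_type_equiv G
  obtain ⟨V', _, _, ⟨f⟩⟩ := exists_type_equiv V
  have : Nontrivial G' := e.symm.toEquiv.nontrivial
  have : Nontrivial V' := f.symm.toEquiv.nontrivial
  let ψ : G' →* MulAut V' := (MulAut.congr f).toMonoidHom.comp (φ.comp e.symm.toMonoidHom)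
  have hψ : ∀ a : G', a ≠ 1 → ∀ v : V', ψ a v = v → v = 1 := by
    intro a ha v hv
    have h1 : f (φ (e.symm a) (f.symm v)) = v := hv
    have h2 : φ (e.symm a) (f.symm v) = f.symm v := by
      apply f.injective
      rw [h1, MulEquiv.apply_symm_apply]
    have h3 := hφ (e.symm a) (fun h => ha (by simpa using h)) _ h2
    simpa using h3
  obtain ⟨L, i1, i2, H, h1, ⟨g⟩, h2⟩ := exists_of_fpf_type ψ hψ
  exact ⟨L, i1, i2, H, h1, ⟨e.trans g⟩, h2.trans (Nat.card_congr f.symm.toEquiv)⟩

/-- The automorphism of `Multiplicative V` attached to a unit of `AddMonoid.End V`. -/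
def unitsEndToMulAut (V : Type*) [AddCommGroup V] :
    (AddMonoid.End V)ˣ →* MulAut (Multiplicative V) where
  toFun u :=
    { toFun := fun v => Multiplicative.ofAdd ((u : AddMonoid.End V) v.toAdd)
      invFun := fun v => Multiplicative.ofAdd (((u⁻¹ : (AddMonoid.End V)ˣ) : AddMonoid.End V) v.toAdd)
      left_inv := by
        intro v
        show Multiplicative.ofAdd ((((u⁻¹ : (AddMonoid.End V)ˣ) : AddMonoid.End V) *
          (u : AddMonoid.End V)) v.toAdd) = v
        rw [← Units.val_mul, inv_mul_cancel, Units.val_one]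
        rfl
      right_inv := by
        intro v
        show Multiplicative.ofAdd (((u : AddMonoid.End V) *
          ((u⁻¹ : (AddMonoid.End V)ˣ) : AddMonoid.End V)) v.toAdd) = v
        rw [← Units.val_mul, mul_inv_cancel, Units.val_one]
        rfl
      map_mul' := by
        intro a b
        show Multiplicative.ofAdd ((u : AddMonoid.End V) (a.toAdd + b.toAdd)) = _
        rw [map_add]
        rfl }
  map_one' := by
    ext v : 1
    rfl
  map_mul' := by
    intro a b
    ext v : 1
    rfl

/-- Additive version: a homomorphism into the monoid of endomorphisms of an abelian group. -/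
theorem exists_of_fpf_end {G V : Type*} [Group G] [Finite G] [Nontrivial G] [AddCommGroup V]
    [Finite V] [Nontrivial V] (φ : G →* AddMonoid.End V)
    (hφ : ∀ a : G, a ≠ 1 → ∀ v : V, φ a v = v → v = 0) :
    ∃ (L : Type) (_ : Group L) (_ : Finite L) (H : Subgroup L),
      Cfsg.IsFrobeniusComplement H ∧ Nonempty (G ≃* H) ∧
      Nat.card (Cfsg.frobeniusKernel H) = Nat.card V := by
  obtain ⟨L, i1, i2, H, h1, h2, h3⟩ := exists_of_fpf (V := Multiplicative V)
    ((unitsEndToMulAut V).comp φ.toHomUnits) (by
      intro a ha v hv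
      have := hφ a ha v.toAdd (congrArg Multiplicative.toAdd hv)
      exact congrArg Multiplicative.ofAdd this)
  exact ⟨L, i1, i2, H, h1, h2, h3.trans (Nat.card_congr Multiplicative.toAdd)⟩

/-- Linear version. -/
theorem exists_of_fpf_linear {G R V : Type*} [Group G] [Finite G] [Nontrivial G] [Ring R]
    [AddCommGroup V] [Module R V] [Finite V] [Nontrivial V] (φ : G →* Module.End R V)
    (hφ : ∀ a : G, a ≠ 1 → ∀ v : V, φ a v = v → v = 0) :
    ∃ (L : Type) (_ : Group L) (_ : Finite L) (H : Subgroup L),
      Cfsg.IsFrobeniusComplement H ∧ Nonempty (G ≃* H) ∧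
      Nat.card (Cfsg.frobeniusKernel H) = Nat.card V := by
  refine exists_of_fpf_end (V := V)
    { toFun := fun g => (φ g).toAddMonoidHom
      map_one' := by rw [map_one]; rfl
      map_mul' := fun a b => by rw [map_mul]; rfl } ?_
  exact hφ

end Cfsg.Agent.H560
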